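import Cfsg.Agent.H58.Wreath.SU.Cent
import Cfsg.Agent.H5.C7.Group

/-!
The line of the transvection is a Sylow subgroup of the plane group: the fixed vectors modulo the first layer, and
an element of the plane group normalising the line and moving the layer.
-/

set_option autoImplicit false
set_option linter.unusedSectionVars false

namespace Cfsg.Agent.H2.TensorWreathSU

open Matrix
open Cfsg.Agent.H99.Tensor
open Cfsg.Agent.H99.TensorU (sp ct lft_conjTranspose rgt_conjTranspose)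
open Cfsg.Agent.H58.Wreath.SU
open Cfsg.Agent.H58.Wreath.Sp (Sx th up lo uni Rel up_lo_entries)
open scoped Kronecker MatrixGroups

section Tools

theorem uni_mul' {F : Type*} [Field F] {ι : Type} [Fintype ι] [DecidableEq ι] {A : Matrix ι ι F} (hA : A * A = 0)
    (d e : F) : uni A hA d * uni A hA e = uni A hA (d + e) := by
  refine Units.ext ?_
  simp only [uni, Units.val_mul, Matrix.add_mul, Matrix.mul_add, Matrix.one_mul, Matrix.mul_one, Matrix.smul_mul,
    Matrix.mul_smul, hA, smul_zero, add_zero]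
  module

theorem uni_zero' {F : Type*} [Field F] {ι : Type} [Fintype ι] [DecidableEq ι] {A : Matrix ι ι F} (hA : A * A = 0) :
    uni A hA 0 = 1 := Units.ext (by simp [uni])

theorem uni_pow' {F : Type*} [Field F] {ι : Type} [Fintype ι] [DecidableEq ι] {A : Matrix ι ι F} (hA : A * A = 0)
    (d : F) (n : ℕ) : uni A hA d ^ n = uni A hA (n * d) := by
  induction n with
  | zero => rw [pow_zero, Nat.cast_zero, zero_mul, uni_zero']
  | succ n ih => rw [pow_succ, ih, uni_mul', Nat.cast_succ, add_mul, one_mul]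

/-- The only involution of `SL₂` over a field of odd characteristic is `-1`. -/
theorem eq_neg_one_of_sq {E : Type*} [Field E] (h2 : (2 : E) ≠ 0) {x : SL(2, E)} (hx : x * x = 1) (h1 : x ≠ 1) :
    x = -1 := by
  have e : x⁻¹ = x := inv_eq_of_mul_eq_one_right hx
  rw [Matrix.SpecialLinearGroup.SL2_inv_expl] at e
  have a : x 1 1 = x 0 0 := by
    have := congrArg (fun r : SL(2, E) => r 0 0) e
    simpa using this
  have b : x 0 1 = 0 := by
    have := congrArg (fun r : SL(2, E) => r 0 1) e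
    simp at this
    exact (mul_eq_zero.1 (show (2 : E) * x 0 1 = 0 by linear_combination -this)).resolve_left h2
  have c : x 1 0 = 0 := by
    have := congrArg (fun r : SL(2, E) => r 1 0) e
    simp at this
    exact (mul_eq_zero.1 (show (2 : E) * x 1 0 = 0 by linear_combination -this)).resolve_left h2
  have hd := x.2
  rw [Matrix.det_fin_two, b, c, a, mul_zero, sub_zero] at hd
  rcases mul_self_eq_one_iff.1 hd with h | h
  · refine absurd (Subtype.ext ?_) h1
    ext i j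
    fin_cases i <;> fin_cases j <;> simp [a, b, c, h]
  · refine Subtype.ext ?_
    ext i j
    fin_cases i <;> fin_cases j <;> simp [a, b, c, h]

/-- An involution without fixed points on a normal subgroup of finite order inverts it. -/
theorem conj_eq_inv {G : Type*} [Group G] [Finite G] {O : Subgroup G} (hO : O.Normal) {u : G} (hu : u * u = 1)
    (h : ∀ x ∈ O, u * x * u⁻¹ = x → x = 1) {x : G} (hx : x ∈ O) : u * x * u⁻¹ = x⁻¹ := by
  have hui : u⁻¹ = u := inv_eq_of_mul_eq_one_right hu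
  let τ : O → O := fun o => ⟨(o : G)⁻¹ * (u * o * u⁻¹), O.mul_mem (O.inv_mem o.2) (hO.conj_mem _ o.2 u)⟩
  have hτ : Function.Injective τ := by
    intro o o' e
    have e' : (o : G)⁻¹ * (u * o * u⁻¹) = (o' : G)⁻¹ * (u * o' * u⁻¹) := congrArg Subtype.val e
    have hfix : u * ((o' : G) * (o : G)⁻¹) * u⁻¹ = (o' : G) * (o : G)⁻¹ := by
      calc u * ((o' : G) * (o : G)⁻¹) * u⁻¹
          = (o' : G) * ((o' : G)⁻¹ * (u * o' * u⁻¹)) * (u * o * u⁻¹)⁻¹ := by group
        _ = (o' : G) * ((o : G)⁻¹ * (u * o * u⁻¹)) * (u * o * u⁻¹)⁻¹ := by rw [← e']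
        _ = (o' : G) * (o : G)⁻¹ := by group
    exact Subtype.ext (eq_of_mul_inv_eq_one (h _ (O.mul_mem o'.2 (O.inv_mem o.2)) hfix)).symm
  obtain ⟨o, ho⟩ := (Finite.injective_iff_surjective.1 hτ) ⟨x, hx⟩
  have ho' : (o : G)⁻¹ * (u * o * u⁻¹) = x := congrArg Subtype.val ho
  rw [← ho', hui]
  have e3 : ∀ y : G, u * (u * y) = y := fun y => by rw [← mul_assoc, hu, one_mul]
  simp [mul_assoc, hui, hu, e3]

end Tools

variable {F : Type*} [Field F] [StarRing F] {α : Type} [Fintype α] [DecidableEq α] {b : ℕ}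
  {M : Subgroup (GL (α × Fin b) F)}

local notation "Ix" => α × Fin b

/-- The line of the transvection, as a subgroup. -/
def ua (S : Frame M) : Subgroup (GL Ix F) where
  carrier := {g | ∃ r : F, star r = r ∧ g = uni S.A S.A_sq r}
  one_mem' := ⟨0, star_zero F, (uni_zero' _).symm⟩
  mul_mem' := by
    rintro _ _ ⟨r, hr, rfl⟩ ⟨s, hs, rfl⟩
    exact ⟨r + s, by rw [star_add, hr, hs], uni_mul' _ _ _⟩
  inv_mem' := by
    rintro _ ⟨r, hr, rfl⟩
    exact ⟨-r, by rw [star_neg, hr], inv_eq_of_mul_eq_one_right (by rw [uni_mul', add_neg_cancel, uni_zero'])⟩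

theorem ua_mem (S : Frame M) {r : F} (hr : star r = r) : uni S.A S.A_sq r ∈ ua S := ⟨r, hr, rfl⟩

theorem ua_le (S : Frame M) : ua S ≤ S.K := by
  rintro _ ⟨r, hr, rfl⟩
  exact S.uA_mem hr

variable [Finite F] (H : Setup M) (S : Frame M)
include H

theorem A_ne [Nonempty α] : S.A ≠ 0 := by
  intro h
  obtain ⟨v, -, hwv, hvw⟩ := H.exists_partner S.hw0 S.hw
  have e := congrArg (fun T => rgt α (star v) * T * lft α v) h
  simp only [S.A_eq, Frame.P, lft_conjTranspose, Matrix.mul_smul, Matrix.smul_mul, ← Matrix.mul_assoc, rgt_star_lft,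
    hvw, one_smul, Matrix.one_mul, Matrix.mul_zero, Matrix.zero_mul] at e
  rw [hwv, one_smul] at e
  exact S.hd0 ((smul_eq_zero.1 e).resolve_right one_ne_zero)

theorem uni_ne_one [Nonempty α] {r : F} (hr : r ≠ 0) : uni S.A S.A_sq r ≠ 1 := fun h => by
  have e := congrArg Units.val h
  simp only [uni, Units.val_one, add_eq_left] at e
  exact (smul_ne_zero hr (A_ne H S)) e

/-- Conjugation of an element of the line. -/
theorem conj_val {g : GL Ix F} (hg : g ∈ S.K) {X : Matrix Ix Ix F} (hX : X * X = 0) (r : F) :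
    ((g * uni X hX r * g⁻¹ : GL Ix F) : Matrix Ix Ix F) =
      1 + r • ((g : Matrix Ix Ix F) * X * (g : Matrix Ix Ix F)ᴴ) := by
  simp only [uni, Units.val_mul, S.K_inv H hg, Matrix.mul_add, Matrix.add_mul, Matrix.mul_one, Matrix.mul_smul,
    Matrix.smul_mul, H.unit (S.K_inM H hg)]

/-- An element conjugating the line into itself scales the transvection. -/
theorem scales [Nonempty α] {g : GL Ix F} (hg : g ∈ S.K)
    (hu : g * uni S.A S.A_sq 1 * g⁻¹ ∈ ua S) :
    ∃ c : F, c ≠ 0 ∧ (g : Matrix Ix Ix F) * S.A * (g : Matrix Ix Ix F)ᴴ = c • S.A := by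
  obtain ⟨c, -, hc⟩ := hu
  have e := congrArg Units.val hc
  rw [conj_val H S hg, one_smul] at e
  simp only [uni, add_right_inj] at e
  refine ⟨c, fun h0 => A_ne H S ?_, e⟩
  rw [h0, zero_smul] at e
  have := congrArg (fun T => (g : Matrix Ix Ix F)ᴴ * T * (g : Matrix Ix Ix F)) e
  simp only [← Matrix.mul_assoc, S.K_unit H hg, Matrix.one_mul, Matrix.mul_zero, Matrix.zero_mul] at this
  rwa [Matrix.mul_assoc, S.K_unit H hg, Matrix.mul_one] at this

theorem scales_pow {g : Matrix Ix Ix F} {c : F} (hA : g * S.A * gᴴ = c • S.A) (n : ℕ) :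
    g ^ n * S.A * (g ^ n)ᴴ = c ^ n • S.A := by
  induction n with
  | zero => simp
  | succ n ih =>
    calc g ^ (n + 1) * S.A * (g ^ (n + 1))ᴴ = g ^ n * (g * S.A * gᴴ) * (g ^ n)ᴴ := by
          simp only [pow_succ, conjTranspose_mul, Matrix.mul_assoc]
      _ = c • (g ^ n * S.A * (g ^ n)ᴴ) := by rw [hA, Matrix.mul_smul, Matrix.smul_mul]
      _ = c ^ (n + 1) • S.A := by rw [ih, smul_smul, pow_succ']

/-- A normalising element of prime power order lies on the line. -/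
theorem mem_ua_of_norm [Nonempty α] (hnp : ¬ IsPure (1 + S.B)) (hf : S.Fine) {p : ℕ} [Fact p.Prime] [CharP F p]
    {g : GL Ix F} (hg : g ∈ S.K) (hu : g * uni S.A S.A_sq 1 * g⁻¹ ∈ ua S) {j : ℕ} (hj : g ^ p ^ j = 1) :
    g ∈ ua S := by
  obtain ⟨c, -, hA⟩ := scales H S hg hu
  have hc : c = 1 := by
    have e := scales_pow H S hA (p ^ j)
    rw [← Units.val_pow_eq_pow_val, hj, Units.val_one, conjTranspose_one, Matrix.one_mul, Matrix.mul_one] at e
    have e1 : c ^ p ^ j = 1 := smul_left_injective F (A_ne H S) (by simpa using e.symm)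
    have e2 := sub_pow_char_pow (p := p) c 1 j
    rw [e1, one_pow, sub_self] at e2
    exact sub_eq_zero.1 (eq_zero_of_pow_eq_zero e2)
  rw [hc, one_smul] at hA
  have hn : (2 : F) = 0 ∨ ∃ n : ℕ, Odd n ∧ g ^ n = 1 := by
    rcases (Fact.out : p.Prime).eq_two_or_odd' with rfl | hp
    · exact Or.inl (by exact_mod_cast CharP.cast_eq_zero F 2)
    · exact Or.inr ⟨_, hp.pow, hj⟩
  exact S.core H hnp hg (S.cent H hf hg hA hn)

/-- Every element of prime power order of the plane group is conjugate into the line. -/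
theorem conj_mem_ua [Nonempty α] (hnp : ¬ IsPure (1 + S.B)) (hf : S.Fine) {p : ℕ} [Fact p.Prime] [CharP F p]
    {x : GL Ix F} (hx : x ∈ S.K) {j : ℕ} (hj : x ^ p ^ j = 1) : ∃ k ∈ S.K, k * x * k⁻¹ ∈ ua S := by
  classical
  have : Finite (GL Ix F) := Finite.of_injective _ Units.val_injective
  let U : Subgroup S.K := (ua S).subgroupOf S.K
  have hU : IsPGroup p U := by
    rintro ⟨y, r, hr, hy⟩
    refine ⟨1, Subtype.ext (Subtype.ext ?_)⟩
    simp only [SubgroupClass.coe_pow, OneMemClass.coe_one, pow_one]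
    rw [show (y : GL Ix F) = _ from hy, uni_pow', CharP.cast_eq_zero F p, zero_mul, uni_zero']
  obtain ⟨T, hT⟩ := hU.exists_le_sylow
  have hTU : (T : Subgroup S.K) = U := by
    refine le_antisymm ?_ hT
    have := T.isPGroup'.isNilpotent
    by_contra hle
    have hne : U.subgroupOf (T : Subgroup S.K) ≠ ⊤ := fun h => hle (Subgroup.subgroupOf_eq_top.1 h)
    obtain ⟨y, hy, hyn⟩ := SetLike.exists_of_lt
      (Group.normalizerCondition_of_isNilpotent _ (lt_top_iff_ne_top.2 hne))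
    obtain ⟨i, hi⟩ := T.isPGroup' y
    refine hyn (Subgroup.mem_subgroupOf.2 (Subgroup.mem_subgroupOf.2
      (mem_ua_of_norm H S hnp hf (y : S.K).2 (p := p) (j := i) ?_ ?_)))
    · let u : S.K := ⟨_, S.uA_mem (star_one F)⟩
      have huU : u ∈ U := Subgroup.mem_subgroupOf.2 (ua_mem S (star_one F))
      exact Subgroup.mem_subgroupOf.1 (Subgroup.mem_subgroupOf.1
        (((Subgroup.mem_normalizer_iff.1 hy) ⟨u, hT huU⟩).1 (Subgroup.mem_subgroupOf.2 huU)))
    · exact congrArg (fun z : (T : Subgroup S.K) => ((z : S.K) : GL Ix F)) hi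
  have hz : IsPGroup p (Subgroup.zpowers (⟨x, hx⟩ : S.K)) := by
    rintro ⟨z, i, rfl⟩
    refine ⟨j, Subtype.ext (Subtype.ext ?_)⟩
    simp only [SubgroupClass.coe_pow, OneMemClass.coe_one, SubgroupClass.coe_zpow]
    rw [← zpow_natCast, ← _root_.zpow_mul, mul_comm, _root_.zpow_mul, zpow_natCast, hj, _root_.one_zpow]
  obtain ⟨T', hT'⟩ := hz.exists_le_sylow
  obtain ⟨k, hk⟩ := MulAction.exists_smul_eq S.K T' T
  refine ⟨(k : GL Ix F), k.2, ?_⟩
  have h1 : k * ⟨x, hx⟩ * k⁻¹ ∈ (T : Subgroup S.K) := by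
    rw [← hk]
    exact ⟨⟨x, hx⟩, hT' (Subgroup.mem_zpowers _), rfl⟩
  rw [hTU] at h1
  exact Subgroup.mem_subgroupOf.1 h1

/-- The vectors orthogonal to the first layer are fixed modulo that layer. -/
theorem dp [Nonempty α] (hnp : ¬ IsPure (1 + S.B)) (hf : S.Fine) : S.Dp := by
  obtain ⟨p, hp⟩ := CharP.exists F
  have : Fact p.Prime := ⟨CharP.char_is_prime F p⟩
  have hB : (uni S.B S.B_sq 1) ^ p ^ 1 = 1 := by
    rw [pow_one, uni_pow', CharP.cast_eq_zero F p, zero_mul, uni_zero']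
  obtain ⟨k, hk, r, -, hr⟩ := conj_mem_ua H S hnp hf (S.uB_mem (star_one F)) hB
  have e := congrArg Units.val hr
  rw [conj_val H S hk, one_smul] at e
  simp only [uni, add_right_inj] at e
  set X := (k : Matrix Ix Ix F) with hX
  set W := X * S.P₁ with hW
  have hLW : S.L * Xᴴ * W = 1 := by
    rw [hW, Matrix.mul_assoc, ← Matrix.mul_assoc Xᴴ, S.K_unit H hk, Matrix.one_mul, S.hL]
  have e2 : S.d₁ • (W * Wᴴ) = (r * S.d) • (S.P * S.Pᴴ) := by
    rw [Frame.B, S.A_eq, smul_smul, Matrix.mul_smul, Matrix.smul_mul] at e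
    rw [← e, hW, conjTranspose_mul]
    simp only [Matrix.mul_assoc]
  obtain ⟨h, hh⟩ : ∃ h : Matrix α α F, W = S.P * h := by
    refine ⟨(S.d₁⁻¹ * (r * S.d)) • (S.Pᴴ * (S.L * Xᴴ)ᴴ), ?_⟩
    have e3 := congrArg (fun T => T * (S.L * Xᴴ)ᴴ) e2
    simp only [Matrix.smul_mul, Matrix.mul_assoc] at e3
    rw [← conjTranspose_mul, hLW, conjTranspose_one, Matrix.mul_one] at e3
    rw [Matrix.mul_smul, ← smul_smul, ← e3, smul_smul, inv_mul_cancel₀ S.hd₁0, one_smul]
  intro η hη u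
  suffices hmem : S.P₁ᴴ *ᵥ (lft α η *ᵥ u) ∈ LinearMap.range S.Cᴴ.mulVecLin by
    obtain ⟨f, hf⟩ := hmem
    refine ⟨-f, ?_⟩
    rw [mulVec_add, mulVec_mulVec _ S.P₁ᴴ S.P, ← S.C_conjTranspose, mulVec_neg, ← hf]
    exact add_neg_cancel _
  by_contra hmem
  obtain ⟨φ, hφ, hφ0⟩ := Submodule.exists_dual_map_eq_bot_of_notMem hmem inferInstance
  set c : α → F := fun i => φ (Pi.single i 1) with hc
  have hφc : ∀ y : α → F, φ y = c ⬝ᵥ y := fun y => by
    conv_lhs => rw [pi_eq_sum_univ' y, map_sum]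
    simp only [dotProduct, hc, map_smul, smul_eq_mul, mul_comm]
  have hcC : c ᵥ* S.Cᴴ = 0 := by
    refine dotProduct_eq_zero _ fun y => ?_
    rw [← dotProduct_mulVec, ← hφc]
    have : φ (S.Cᴴ *ᵥ y) ∈ Submodule.map φ (LinearMap.range S.Cᴴ.mulVecLin) := ⟨_, ⟨y, rfl⟩, rfl⟩
    rwa [hφ0, Submodule.mem_bot] at this
  set v := star c with hv
  have hCv : S.C *ᵥ v = 0 := star_injective (by rw [star_mulVec, hv, star_star, hcC, star_zero])
  have hz : S.Pᴴ *ᵥ (S.P₁ *ᵥ v) = 0 := by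
    rw [mulVec_mulVec, Frame.P, lft_conjTranspose]; exact hCv
  have hz₁ : S.P₁ᴴ *ᵥ (S.P₁ *ᵥ v) = 0 := by rw [mulVec_mulVec, S.hP₁, zero_mulVec]
  have hfix : X *ᵥ (S.P₁ *ᵥ v) = S.P₁ *ᵥ v := S.K_fix hk (S.killed hz hz₁).1 (S.killed hz hz₁).2
  rw [mulVec_mulVec, ← hW, hh] at hfix
  refine hφ ?_
  rw [hφc, ← star_star c, ← hv, dotProduct_mulVec, ← star_mulVec, ← hfix, star_mulVec, ← dotProduct_mulVec,
    mulVec_mulVec, conjTranspose_mul, Matrix.mul_assoc, Frame.P, lft_conjTranspose, rgt_star_lft, hη, zero_smul,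
    Matrix.mul_zero, zero_mulVec, dotProduct_zero]

/-- The matrices of an element of the line in the plane group. -/
theorem rho_of_line [Nonempty α] {r : F} {ρ : SL(2, Sx S.θ)} (h : (uni S.A S.A_sq r, ρ) ∈ S.Khat) :
    th S.θ * ρ 0 0 = th S.θ ∧ r • (th S.θ * th S.θ) = th S.θ * ρ 0 1 := by
  obtain ⟨v, -, hwv, hvw⟩ := H.exists_partner S.hw0 S.hw
  obtain ⟨h1, h2⟩ := S.Khat_rel h
  have hvP : rgt α (star v) * S.P = 1 := by rw [Frame.P, rgt_star_lft, hvw, one_smul]
  have hPQ : S.d • (S.Pᴴ * (S.B * S.P)) = S.θ := by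
    rw [Frame.θ, ct, Frame.P, lft_conjTranspose, Matrix.mul_assoc]
  have hPQ' : S.d • (S.Pᴴ * S.B * S.P) = S.θ := by rw [Matrix.mul_assoc, hPQ]
  simp only [uni] at h1 h2
  rw [Matrix.add_mul, Matrix.one_mul, Matrix.smul_mul, S.A_P, smul_zero, add_zero] at h1
  rw [Matrix.add_mul, Matrix.one_mul, Matrix.smul_mul, S.A_Q] at h2
  set X := rgt α (star v) * (S.B * S.P) with hX
  have h10 : th S.θ * ρ 1 0 = 0 := by
    refine Subtype.ext ?_
    have e := congrArg (fun T => S.d • (S.Pᴴ * T)) h1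
    simp only [Matrix.mul_add, ← Matrix.mul_assoc, S.PP, Matrix.zero_mul, zero_add, smul_zero] at e
    rw [← Matrix.smul_mul, Matrix.mul_assoc S.Pᴴ, hPQ] at e
    exact e.symm
  have h11 : th S.θ * ρ 1 1 = th S.θ := by
    refine Subtype.ext ?_
    have e := congrArg (fun T => S.d • (S.Pᴴ * T)) h2
    simp only [Matrix.mul_add, Matrix.mul_smul, ← Matrix.mul_assoc, S.PP, Matrix.zero_mul, zero_add, smul_zero,
      add_zero] at e
    rw [hPQ', ← Matrix.smul_mul, hPQ'] at e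
    exact e.symm
  have e1 := congrArg (rgt α (star v) * ·) h1
  simp only [Matrix.mul_add, ← Matrix.mul_assoc, hvP, Matrix.one_mul] at e1
  rw [Matrix.mul_assoc _ S.B, ← hX] at e1
  have e2 := congrArg (rgt α (star v) * ·) h2
  simp only [Matrix.mul_add, Matrix.mul_smul, ← Matrix.mul_assoc, hvP, Matrix.one_mul] at e2
  rw [Matrix.mul_assoc _ S.B, ← hX] at e2
  constructor
  · refine Subtype.ext ?_
    have e := congrArg (· * ((th S.θ : Sx S.θ) : Matrix α α F)) e1
    simp only [Matrix.add_mul, Matrix.one_mul, Matrix.mul_assoc, ← Subalgebra.coe_mul] at e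
    rw [mul_comm (ρ 1 0), h10, ZeroMemClass.coe_zero, Matrix.mul_zero, add_zero, mul_comm (ρ 0 0)] at e
    exact e.symm
  · refine Subtype.ext ?_
    have e := congrArg (· * ((th S.θ : Sx S.θ) : Matrix α α F)) e2
    simp only [Matrix.add_mul, Matrix.smul_mul, Matrix.mul_assoc, ← Subalgebra.coe_mul] at e
    rw [mul_comm (ρ 1 1), h11, mul_comm (ρ 0 1), add_comm _ (X * _), add_right_inj] at e
    rw [Subalgebra.coe_smul]
    exact e

/-- In odd characteristic a residue of the invariant gives an element centralising the transvection and moving the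
layer. -/
theorem mover_odd [Nonempty α] (hnp : ¬ IsPure (1 + S.B)) (hf : S.Fine) (h2 : (2 : F) ≠ 0)
    (hθn : ¬ IsNilpotent S.θ) :
    ∃ g ∈ S.K, (g : Matrix Ix Ix F) * S.A * (g : Matrix Ix Ix F)ᴴ = S.A ∧
      (g : Matrix Ix Ix F) * S.P ≠ S.P := by
  classical
  have : Finite (GL Ix F) := Finite.of_injective _ Units.val_injective
  have : Finite (Sx S.θ) := Subtype.finite
  have : Finite (SL(2, Sx S.θ)) := Subtype.finite
  have hth : ¬ IsNilpotent (th S.θ) := fun h => hθn (h.map (Sx S.θ).val)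
  obtain ⟨J, hJ, hJθ⟩ : ∃ J : Ideal (Sx S.θ), J.IsPrime ∧ th S.θ ∉ J := by
    by_contra hc
    push Not at hc
    exact hth (nilpotent_iff_mem_prime.2 hc)
  let E := Sx S.θ ⧸ J
  have : Finite E := Finite.of_surjective _ Ideal.Quotient.mk_surjective
  have : IsDomain E := Ideal.Quotient.isDomain J
  letI : Field E := (Finite.isDomain_to_isField E).toField
  let π : Sx S.θ →+* E := Ideal.Quotient.mk J
  let ψ : F →+* E := π.comp (algebraMap F (Sx S.θ))
  obtain ⟨p, hp⟩ := CharP.exists F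
  have : Fact p.Prime := ⟨CharP.char_is_prime F p⟩
  have : CharP E p := charP_of_injective_ringHom ψ.injective p
  have h2E : (2 : E) ≠ 0 := fun h => h2 (ψ.injective (by rw [map_ofNat, map_zero]; exact h))
  have hθ : π (th S.θ) ≠ 0 := fun h => hJθ (Ideal.Quotient.eq_zero_iff_mem.1 h)
  let Φ : S.Khat →* SL(2, E) :=
    (Matrix.SpecialLinearGroup.map π).comp ((MonoidHom.snd _ _).comp S.Khat.subtype)
  have hΦ : ∀ (z : S.Khat) (i j : Fin 2), Φ z i j = π ((z : GL Ix F × SL(2, Sx S.θ)).2 i j) := fun _ _ _ => rfl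
  let R : Subgroup SL(2, E) :=
    { carrier := {r | r ∈ Φ.range ∨ -r ∈ Φ.range}
      one_mem' := Or.inl (one_mem _)
      mul_mem' := by
        rintro r r' (h | h) (h' | h')
        · exact Or.inl (mul_mem h h')
        · exact Or.inr (by rw [← mul_neg]; exact mul_mem h h')
        · exact Or.inr (by rw [← neg_mul]; exact mul_mem h h')
        · exact Or.inl (by rw [← neg_mul_neg]; exact mul_mem h h')
      inv_mem' := by
        rintro r (h | h)
        · exact Or.inl (inv_mem h)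
        · refine Or.inr ?_
          rw [show -r⁻¹ = (-r)⁻¹ by rw [eq_inv_iff_mul_eq_one, neg_mul_neg, inv_mul_cancel]]
          exact inv_mem h }
  let za : S.Khat := ⟨_, S.gA_mem (star_one F)⟩
  let zb : S.Khat := ⟨_, S.gB_mem (star_one F)⟩
  obtain ⟨⟨a00, a01, a10, a11⟩, -⟩ := up_lo_entries ((1 : F) • th S.θ)
  obtain ⟨-, b00, b01, b10, b11⟩ := up_lo_entries ((1 : F) • (1 : Sx S.θ))
  have hpair : H1.HasUniPair R := by
    refine ⟨Or.inr (by rw [neg_neg]; exact one_mem _), Φ za, Or.inl ⟨za, rfl⟩, Φ zb, Or.inl ⟨zb, rfl⟩, ?_, ?_, ?_⟩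
    · change π (up ((1 : F) • th S.θ) 0 0) + π (up ((1 : F) • th S.θ) 1 1) = 2
      rw [a00, a11, map_one]
      exact one_add_one_eq_two
    · change π (lo ((1 : F) • (1 : Sx S.θ)) 0 0) + π (lo ((1 : F) • (1 : Sx S.θ)) 1 1) = 2
      rw [b00, b11, map_one]
      exact one_add_one_eq_two
    · intro h
      have := congrArg (fun r : SL(2, E) => r 0 0) h
      simp only [Matrix.SpecialLinearGroup.coe_mul, Matrix.mul_apply, Fin.sum_univ_two, hΦ] at this
      simp only [za, zb] at this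
      rw [a00, a01, a10, b00, b01, b10] at this
      simp only [one_smul, map_one, map_zero, mul_one, mul_zero, add_zero, add_eq_left] at this
      exact hθ this
  obtain ⟨φ, hφ, hφR⟩ := H1.hasPrimeSL_of_uniPair p h2E hpair
  have hp2 : (2 : ZMod p) ≠ 0 := fun h => h2 (by
    have := congrArg (ZMod.castHom (dvd_refl p) F) h
    simpa only [map_ofNat, map_zero] using this)
  let W : SL(2, ZMod p) := ⟨!![0, -1; 1, 0], by simp [det_fin_two_of]⟩
  have hWW : W * W = -1 := by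
    refine H6.sl2_ext ?_ ?_ ?_ ?_ <;> rw [H6.sl2_mul, H6.sl2_neg] <;> simp [W]
  have hneg : φ (W * W) = -1 := by
    refine eq_neg_one_of_sq h2E ?_ fun h => ?_
    · rw [← map_mul, hWW, neg_mul_neg, one_mul, map_one]
    · have := congrArg (fun r : SL(2, ZMod p) => r 0 0) (hWW.symm.trans (hφ (h.trans φ.map_one.symm)))
      simp at this
      exact hp2 (by linear_combination -this)
  obtain ⟨z₀, hz₀⟩ : ∃ z₀ : S.Khat, Φ z₀ = -1 := by
    rw [← hneg, map_mul]
    rcases hφR ⟨W, rfl⟩ with ⟨z, hz⟩ | ⟨z, hz⟩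
    · exact ⟨z * z, by rw [map_mul, hz]⟩
    · exact ⟨z * z, by rw [map_mul, hz, neg_mul_neg]⟩
  let toK : S.Khat →* S.K := (MonoidHom.fst (GL Ix F) (SL(2, Sx S.θ))).subgroupMap S.Khat
  have htoK : Function.Surjective toK := (MonoidHom.fst _ _).subgroupMap_surjective S.Khat
  let N : Subgroup S.K := Φ.ker.map toK
  have hN : N.Normal := Subgroup.Normal.map inferInstance _ htoK
  let U : Subgroup S.K := (ua S).subgroupOf S.K
  have hU : IsPGroup p U := by
    rintro ⟨y, r, hr, hy⟩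
    refine ⟨1, Subtype.ext (Subtype.ext ?_)⟩
    simp only [SubgroupClass.coe_pow, OneMemClass.coe_one, pow_one]
    rw [show (y : GL Ix F) = _ from hy, uni_pow', CharP.cast_eq_zero F p, zero_mul, uni_zero']
  have hUN : ∀ x : S.K, x ∈ N → (x : GL Ix F) ∈ ua S → x = 1 := by
    rintro _ ⟨z, hz, rfl⟩ ⟨r, hr, hzr⟩
    have hmem : (uni S.A S.A_sq r, (z : GL Ix F × SL(2, Sx S.θ)).2) ∈ S.Khat := by
      rw [← hzr]; exact z.2
    obtain ⟨-, e⟩ := rho_of_line H S hmem
    have h01 : π ((z : GL Ix F × SL(2, Sx S.θ)).2 0 1) = 0 := by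
      rw [← hΦ z 0 1, MonoidHom.mem_ker.1 hz]; simp
    have e' := congrArg π e
    simp only [Algebra.smul_def, map_mul, h01, mul_zero] at e'
    have hr0 : r = 0 := ψ.injective (by
      rw [map_zero]
      exact (mul_eq_zero.1 e').resolve_right (mul_ne_zero hθ hθ))
    refine Subtype.ext ?_
    rw [hzr, hr0, uni_zero', OneMemClass.coe_one]
  have hpN : ¬ p ∣ Nat.card N := by
    intro hd
    obtain ⟨n, hn⟩ := exists_prime_orderOf_dvd_card' p hd
    have hn1 : ((n : S.K) : GL Ix F) ^ p ^ 1 = 1 := by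
      rw [pow_one, ← SubgroupClass.coe_pow, ← SubgroupClass.coe_pow, ← hn, pow_orderOf_eq_one]
      rfl
    obtain ⟨k, hk, hkn⟩ := conj_mem_ua H S hnp hf (n : S.K).2 hn1
    have e := hUN _ (hN.conj_mem _ n.2 ⟨k, hk⟩) hkn
    rw [conj_eq_one_iff, OneMemClass.coe_eq_one] at e
    rw [e, orderOf_one] at hn
    exact (Fact.out : p.Prime).one_lt.ne hn
  let q₀ : S.K ⧸ N := QuotientGroup.mk' N (toK z₀)
  let Y := {y : S.K // QuotientGroup.mk' N y = q₀}
  have hq : ∀ u : S.K, QuotientGroup.mk' N u * q₀ * (QuotientGroup.mk' N u)⁻¹ = q₀ := fun u => by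
    obtain ⟨w, rfl⟩ := htoK u
    simp only [q₀, ← map_mul, ← map_inv]
    refine (QuotientGroup.eq.2 ?_ : ((toK (w * z₀ * w⁻¹) : S.K) : S.K ⧸ N) = (toK z₀ : S.K ⧸ N))
    rw [← map_inv, ← map_mul]
    exact Subgroup.mem_map_of_mem _ (MonoidHom.mem_ker.2 (by simp [map_mul, map_inv, hz₀]))
  letI act : MulAction U Y :=
    { smul := fun u y => ⟨(u : S.K) * y.1 * (u : S.K)⁻¹, by rw [map_mul, map_mul, map_inv, y.2, hq]⟩
      one_smul := fun y => Subtype.ext (by
        change ((1 : U) : S.K) * y.1 * ((1 : U) : S.K)⁻¹ = y.1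
        simp)
      mul_smul := fun u u' y => Subtype.ext (by
        change ((u * u' : U) : S.K) * y.1 * ((u * u' : U) : S.K)⁻¹ =
          (u : S.K) * ((u' : S.K) * y.1 * (u' : S.K)⁻¹) * (u : S.K)⁻¹
        simp [mul_assoc]) }
  have hY : Nat.card Y = Nat.card N := by
    refine (Nat.card_congr ?_).symm
    exact
      { toFun := fun n => ⟨toK z₀ * n.1, by
          rw [map_mul, (QuotientGroup.eq_one_iff (n : S.K)).2 n.2 |> (fun h => (h : QuotientGroup.mk' N n.1 = 1)),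
            mul_one]⟩
        invFun := fun y => ⟨(toK z₀)⁻¹ * y.1, QuotientGroup.eq.1 y.2.symm⟩
        left_inv := fun n => Subtype.ext (inv_mul_cancel_left _ _)
        right_inv := fun y => Subtype.ext (mul_inv_cancel_left _ _) }
  obtain ⟨⟨y, hyq⟩, hy⟩ := hU.nonempty_fixed_point_of_prime_not_dvd_card Y (by rw [hY]; exact hpN)
  obtain ⟨z, hz, hzy⟩ : ∃ z : S.Khat, Φ z = -1 ∧ toK z = y := by
    obtain ⟨n, hn, e⟩ := (QuotientGroup.eq.1 hyq.symm : (toK z₀)⁻¹ * y ∈ N)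
    refine ⟨z₀ * n, ?_, by rw [map_mul, e, mul_inv_cancel_left]⟩
    rw [map_mul, hz₀, MonoidHom.mem_ker.1 hn, mul_one]
  let u₁ : U := ⟨⟨_, S.uA_mem (star_one F)⟩, Subgroup.mem_subgroupOf.2 (ua_mem S (star_one F))⟩
  have hyu : (y : GL Ix F) * uni S.A S.A_sq 1 * (y : GL Ix F)⁻¹ = uni S.A S.A_sq 1 := by
    have e : uni S.A S.A_sq 1 * (y : GL Ix F) * (uni S.A S.A_sq 1)⁻¹ = (y : GL Ix F) :=
      congrArg (fun t : Y => ((t.1 : S.K) : GL Ix F)) (hy u₁)
    rw [mul_inv_eq_iff_eq_mul] at e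
    rw [mul_inv_eq_iff_eq_mul, ← e]
  have hA : ((y : GL Ix F) : Matrix Ix Ix F) * S.A * ((y : GL Ix F) : Matrix Ix Ix F)ᴴ = S.A := by
    have e := congrArg Units.val hyu
    rw [conj_val H S y.2] at e
    simpa [uni] using e
  refine ⟨y, y.2, hA, fun hP => ?_⟩
  obtain ⟨r, hr, hyr⟩ := S.core H hnp y.2 hP
  have hmem : (uni S.A S.A_sq r, (z : GL Ix F × SL(2, Sx S.θ)).2) ∈ S.Khat := by
    rw [← hyr, ← hzy]; exact z.2
  obtain ⟨e, -⟩ := rho_of_line H S hmem
  have h00 : π ((z : GL Ix F × SL(2, Sx S.θ)).2 0 0) = -1 := by rw [← hΦ z 0 0, hz]; simp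
  have e' := congrArg π e
  rw [map_mul, h00] at e'
  exact h2E ((mul_eq_zero.1 (show (2 : E) * π (th S.θ) = 0 by linear_combination -e')).resolve_right hθ)

/-- In characteristic two a ground field larger than two gives a normalising element moving the layer. -/
theorem mover_two [Nonempty α] (hnp : ¬ IsPure (1 + S.B)) (h2 : (2 : F) = 0)
    (hr : ∃ r : F, star r = r ∧ r ≠ 0 ∧ r ≠ 1) :
    ∃ g ∈ S.K, ∃ c : F, c ≠ 0 ∧ (g : Matrix Ix Ix F) * S.A * (g : Matrix Ix Ix F)ᴴ = c • S.A ∧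
      (g : Matrix Ix Ix F) * S.P ≠ S.P := by
  classical
  by_contra hno
  push Not at hno
  obtain ⟨r₀, hr₀, hr₀0, hr₀1⟩ := hr
  have : Finite (GL Ix F) := Finite.of_injective _ Units.val_injective
  have hhalf : ∀ x : F, x + x = 0 := fun x => by rw [← two_mul, h2, zero_mul]
  let U : Subgroup S.K := (ua S).subgroupOf S.K
  have hsq : ∀ u : S.K, u ∈ U → u * u = 1 := by
    rintro y ⟨r, hr, hy⟩
    refine Subtype.ext ?_
    rw [Subgroup.coe_mul, OneMemClass.coe_one, show (y : GL Ix F) = _ from hy, uni_mul', hhalf, uni_zero']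
  have : Fact (Nat.Prime 2) := ⟨Nat.prime_two⟩
  obtain ⟨O, hO, hodd, hdec, hdis, -⟩ := H5.C7.selfnormalizing_complement (p := 2) U
    (fun u => ⟨1, Subtype.ext (by rw [pow_one, SubgroupClass.coe_pow, pow_two]; exact hsq _ u.2)⟩)
    (fun a ha c hc => by
      obtain ⟨r, -, hr⟩ := ha
      obtain ⟨s, -, hs⟩ := hc
      refine Subtype.ext ?_
      rw [Subgroup.coe_mul, Subgroup.coe_mul, show (a : GL Ix F) = _ from hr, show (c : GL Ix F) = _ from hs,
        uni_mul', uni_mul', add_comm])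
    (fun y hy => by
      let u₁ : S.K := ⟨_, S.uA_mem (star_one F)⟩
      obtain ⟨c, hc, hA⟩ := scales H S y.2
        (Subgroup.mem_subgroupOf.1 (hy u₁ (Subgroup.mem_subgroupOf.2 (ua_mem S (star_one F)))))
      exact Subgroup.mem_subgroupOf.2 (S.core H hnp y.2 (hno _ y.2 c hc hA)))
  have hinv : ∀ {r : F}, star r = r → r ≠ 0 → ∀ hm : uni S.A S.A_sq r ∈ S.K, ∀ x ∈ O,
      (⟨_, hm⟩ : S.K) * x * (⟨_, hm⟩ : S.K)⁻¹ = x⁻¹ := fun {r} hr hr0 hm x hx => by
    refine conj_eq_inv hO (hsq _ (Subgroup.mem_subgroupOf.2 (ua_mem S hr))) (fun x hx e => hdis x hx ?_) hx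
    have e1 : (x : GL Ix F) * uni S.A S.A_sq r * (x : GL Ix F)⁻¹ = uni S.A S.A_sq r := by
      have e' : uni S.A S.A_sq r * (x : GL Ix F) * (uni S.A S.A_sq r)⁻¹ = (x : GL Ix F) := congrArg Subtype.val e
      rw [mul_inv_eq_iff_eq_mul] at e'
      rw [mul_inv_eq_iff_eq_mul, ← e']
    have e2 := congrArg Units.val e1
    rw [conj_val H S x.2] at e2
    simp only [uni, add_right_inj] at e2
    refine Subgroup.mem_subgroupOf.2 (S.core H hnp x.2 (hno _ x.2 1 one_ne_zero ?_))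
    rw [one_smul]
    exact smul_right_injective (Matrix Ix Ix F) hr0 e2
  have hO1 : ∀ x ∈ O, x = 1 := by
    intro x hx
    have hs : star (1 + r₀) = 1 + r₀ := by rw [star_add, star_one, hr₀]
    have hne : 1 + r₀ ≠ 0 := fun h => hr₀1 (by linear_combination h - hhalf 1)
    have a := hinv (star_one F) one_ne_zero (S.uA_mem (star_one F)) x hx
    have c := hinv hr₀ hr₀0 (S.uA_mem hr₀) x hx
    have d := hinv hs hne (S.uA_mem hs) x hx
    have hmul : (⟨_, S.uA_mem (star_one F)⟩ : S.K) * ⟨_, S.uA_mem hr₀⟩ = ⟨_, S.uA_mem hs⟩ :=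
      Subtype.ext (uni_mul' S.A_sq 1 r₀)
    rw [← hmul] at d
    have hx2 : x * x = 1 := by
      rw [mul_eq_one_iff_eq_inv]
      refine Eq.trans ?_ d
      calc x = (x⁻¹)⁻¹ := (inv_inv x).symm
        _ = ((⟨_, S.uA_mem (star_one F)⟩ : S.K) * x * (⟨_, S.uA_mem (star_one F)⟩ : S.K)⁻¹)⁻¹ := by rw [a]
        _ = (⟨_, S.uA_mem (star_one F)⟩ : S.K) * x⁻¹ * (⟨_, S.uA_mem (star_one F)⟩ : S.K)⁻¹ := by group
        _ = _ := by rw [← c]; group
    have hord : orderOf x = 1 := by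
      rcases (Nat.dvd_prime Nat.prime_two).1 (orderOf_dvd_of_pow_eq_one (by rw [pow_two, hx2] : x ^ 2 = 1)) with
        h | h
      · exact h
      · exact absurd (h ▸ O.orderOf_dvd_natCard hx) hodd
    exact orderOf_eq_one_iff.1 hord
  obtain ⟨o, ho, u, ⟨r, -, hu⟩, hou⟩ := hdec ⟨_, S.uB_mem (star_one F)⟩
  rw [hO1 o ho, one_mul] at hou
  have e := congrArg Units.val ((congrArg Subtype.val hou).trans hu)
  simp only [uni, one_smul, add_right_inj] at e
  refine hnp (H.root_ct_zero S.isRoot S.hw0 S.hw (H.ct_zero_of_comm S.hw0 S.hw S.hd0 ?_))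
  change S.A * S.B = S.B * S.A
  rw [e, Matrix.mul_smul, Matrix.smul_mul]

/-- An element normalising the line and moving the layer. -/
theorem mover [Nonempty α] (hnp : ¬ IsPure (1 + S.B)) (hf : S.Fine) (hr : ∃ r : F, star r = r ∧ r ≠ 0 ∧ r ≠ 1)
    (h : (2 : F) = 0 ∨ ¬ IsNilpotent S.θ) :
    ∃ g ∈ S.K, ∃ c : F, c ≠ 0 ∧ (g : Matrix Ix Ix F) * S.A * (g : Matrix Ix Ix F)ᴴ = c • S.A ∧
      (g : Matrix Ix Ix F) * S.P ≠ S.P := by
  by_cases h2 : (2 : F) = 0
  · exact mover_two H S hnp h2 hr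
  · obtain ⟨g, hg, hA, hP⟩ := mover_odd H S hnp hf h2 (h.resolve_left h2)
    exact ⟨g, hg, 1, one_ne_zero, by rw [one_smul, hA], hP⟩

end Cfsg.Agent.H2.TensorWreathSU
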